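import Cfsg.Agent.Lib.Helper41.Dickson.Master
import Cfsg.Agent.Lib.Helper41.Dickson.Packages
import Cfsg.Agent.Lib.Helper41.Dickson.Cards
import Cfsg.Agent.Lib.Helper41.SL2Invol
import Cfsg.Agent.Lib.Helper5.SL2Sylow
import Cfsg.Agent.Lib.Helper50.Involves

/-!
# `PSL₂(q)`, `q` odd, does not involve `SL₂(p)` (for S2787)
-/

set_option autoImplicit false

namespace Cfsg.Agent.Lib.Helper41.Quad

open Cfsg Cfsg.Agent.Lib.Helper41 Cfsg.Agent.Lib.Helper41.Dickson

variable {F : Type*} [Field F] [Fintype F]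

theorem not_dvd_two_pow {r : ℕ} (hr : r.Prime) (hr2 : r ≠ 2) (n : ℕ) : ¬ r ∣ 2 ^ n := by
  intro h
  have := hr.dvd_of_dvd_pow h
  exact hr2 ((Nat.prime_dvd_prime_iff_eq hr Nat.prime_two).1 this)

theorem two_group_image_comm (p : ℕ) [Fact p.Prime] [CharP F p] (hp : p ≠ 2)
    (T : Subgroup (Matrix.ProjectiveSpecialLinearGroup (Fin 2) F)) (hT : IsPGroup 2 T)
    (g : T →* Matrix.SpecialLinearGroup (Fin 2) (ZMod p)) (x y : T) : g x * g y = g y * g x := by
  have hpp : p.Prime := Fact.out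
  obtain ⟨n, hn⟩ := hT.exists_card_eq
  have comm_case : (∀ a b : T, a * b = b * a) → g x * g y = g y * g x := by
    intro h
    rw [← map_mul, h, map_mul]
  have h2p : (2 : ZMod p) ≠ 0 := by
    intro h
    have h1 : ((2 : ℕ) : ZMod p) = 0 := by exact_mod_cast h
    rw [ZMod.natCast_eq_zero_iff] at h1
    exact hp ((Nat.prime_dvd_prime_iff_eq hpp Nat.prime_two).1 h1)
  have hpK : ∀ K : Subfield F, p ∣ Nat.card K := by
    intro K
    obtain ⟨m, -, hm, -⟩ := subfield_card K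
    obtain ⟨e, -, he⟩ := FiniteField.card F p
    have : p ∣ Nat.card K ^ m := by
      rw [← hm, he]
      exact dvd_pow_self p e.ne_zero
    exact hpp.dvd_of_dvd_pow this
  rcases dickson_psl p T with ⟨hc, -⟩ | ⟨k, -, ⟨e⟩⟩ | ⟨P, hP⟩ | ⟨⟨e⟩⟩ | ⟨⟨e⟩⟩ | ⟨⟨e⟩⟩ | ⟨K, ⟨⟨e⟩⟩ | ⟨⟨e⟩⟩⟩
  · exact comm_case (fun a b => (IsCyclic.isMulCommutative (α := T)).is_comm.comm a b)
  · have hsr : ∀ i : ZMod k, ∀ w, g (e.symm (DihedralGroup.sr i)) * w = w * g (e.symm (DihedralGroup.sr i)) := by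
      intro i w
      have h1 : g (e.symm (DihedralGroup.sr i)) * g (e.symm (DihedralGroup.sr i)) = 1 := by
        rw [← map_mul, ← map_mul, DihedralGroup.sr_mul_self, map_one, map_one]
      rcases (sl2_mul_self_eq_one_iff h2p _).1 h1 with h3 | h3
      · rw [h3, one_mul, mul_one]
      · rw [h3, neg_mul, mul_neg, one_mul, mul_one]
    have hall : ∀ d : DihedralGroup k, ∀ w, g (e.symm d) * w = w * g (e.symm d) := by
      intro d w
      cases d with
      | r i =>
        have : DihedralGroup.r i = DihedralGroup.sr 0 * DihedralGroup.sr i := by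
          rw [DihedralGroup.sr_mul_sr, sub_zero]
        rw [this, map_mul, map_mul, mul_assoc, hsr i w, ← mul_assoc, hsr 0 w, mul_assoc]
      | sr i => exact hsr i w
    have := hall (e x) (g y)
    rwa [e.symm_apply_apply] at this
  · apply comm_case
    intro a b
    obtain ⟨-, -, -, h4, -, h6⟩ := borel_package p P
    have hc1 := h4 a (hP a.2) b (hP b.2)
    have hc2 := h6 _ hc1
    obtain ⟨j, hj⟩ := hT (a * b * a⁻¹ * b⁻¹)
    have hj' : ((a : Matrix.ProjectiveSpecialLinearGroup (Fin 2) F) * b * (a : Matrix.ProjectiveSpecialLinearGroup (Fin 2) F)⁻¹ * (b : Matrix.ProjectiveSpecialLinearGroup (Fin 2) F)⁻¹) ^ 2 ^ j = 1 := by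
      have := congrArg Subtype.val hj
      simpa using this
    have hd1 := orderOf_dvd_of_pow_eq_one hc2
    have hd2 := orderOf_dvd_of_pow_eq_one hj'
    have hcop : Nat.Coprime p (2 ^ j) :=
      Nat.Coprime.pow_right j ((Nat.coprime_primes hpp Nat.prime_two).2 hp)
    have h1 : orderOf ((a : Matrix.ProjectiveSpecialLinearGroup (Fin 2) F) * b * (a : Matrix.ProjectiveSpecialLinearGroup (Fin 2) F)⁻¹ * (b : Matrix.ProjectiveSpecialLinearGroup (Fin 2) F)⁻¹) = 1 :=
      Nat.eq_one_of_dvd_coprimes hcop hd1 hd2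
    rw [orderOf_eq_one_iff, mul_inv_eq_one, mul_inv_eq_iff_eq_mul] at h1
    exact Subtype.ext h1
  · exfalso
    have := Nat.card_congr e.toEquiv
    rw [hn, natCard_alt_four] at this
    exact not_dvd_two_pow Nat.prime_three (by norm_num) n (by rw [this]; norm_num)
  · exfalso
    have := Nat.card_congr e.toEquiv
    rw [hn, natCard_perm_four] at this
    exact not_dvd_two_pow Nat.prime_three (by norm_num) n (by rw [this]; norm_num)
  · exfalso
    have := Nat.card_congr e.toEquiv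
    rw [hn, natCard_alt_five] at this
    exact not_dvd_two_pow Nat.prime_three (by norm_num) n (by rw [this]; norm_num)
  · exfalso
    have h1 := Nat.card_congr e.toEquiv
    have h3 := natCard_PSL2 K
    rw [← h1, hn] at h3
    have h4 : p ∣ Nat.gcd 2 (Nat.card K - 1) * 2 ^ n := by
      rw [h3]; exact Dvd.dvd.mul_right (hpK K) _
    rcases (Nat.Prime.dvd_mul hpp).1 h4 with h5 | h5
    · have h6 : p ∣ 2 := h5.trans (Nat.gcd_dvd_left _ _)
      exact hp ((Nat.prime_dvd_prime_iff_eq hpp Nat.prime_two).1 h6)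
    · exact not_dvd_two_pow hpp hp n h5
  · exfalso
    have h1 := Nat.card_congr e.toEquiv
    have h3 := natCard_PGL2 K
    rw [← h1, hn] at h3
    exact not_dvd_two_pow hpp hp n (by rw [h3]; exact Dvd.dvd.mul_right (hpK K) _)

theorem quaternion_not_comm (k : ℕ) (hk : 1 ≤ k) :
    ∃ a b : QuaternionGroup (2 ^ k), a * b ≠ b * a := by
  refine ⟨QuaternionGroup.a 1, QuaternionGroup.xa 0, ?_⟩
  rw [QuaternionGroup.a_mul_xa, QuaternionGroup.xa_mul_a]
  intro h
  have h1 : (0 - 1 : ZMod (2 * 2 ^ k)) = 0 + 1 := QuaternionGroup.xa.inj h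
  have h2 : ((2 : ℕ) : ZMod (2 * 2 ^ k)) = 0 := by
    push_cast
    linear_combination -h1
  rw [ZMod.natCast_eq_zero_iff] at h2
  have h3 : 2 ≤ 2 ^ k := by
    calc 2 = 2 ^ 1 := by norm_num
      _ ≤ 2 ^ k := Nat.pow_le_pow_right (by norm_num) hk
  have := Nat.le_of_dvd (by norm_num) h2
  omega

theorem not_involves_sl2 (p : ℕ) [Fact p.Prime] [CharP F p] (hp : p ≠ 2) :
    ¬ Cfsg.Involves (Matrix.SpecialLinearGroup (Fin 2) (ZMod p))
      (Matrix.ProjectiveSpecialLinearGroup (Fin 2) F) := by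
  intro h
  have hpp : p.Prime := Fact.out
  obtain ⟨K, f, hf⟩ := Cfsg.Agent.Lib.Helper50.exists_surjective_of_involves h
  obtain ⟨T⟩ : Nonempty (Sylow 2 K) := inferInstance
  have hodd : Odd (Fintype.card (ZMod p)) := by
    rw [ZMod.card]; exact hpp.odd_of_ne_two hp
  obtain ⟨k, hk, ⟨e⟩⟩ := Cfsg.Agent.Lib.Helper5.sylow_two_SL2_quaternion hodd (T.mapSurjective hf)
  obtain ⟨a, b, hab⟩ := quaternion_not_comm k hk
  apply hab
  obtain ⟨⟨_, x, hx, rfl⟩, hxa⟩ := e.surjective a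
  obtain ⟨⟨_, y, hy, rfl⟩, hyb⟩ := e.surjective b
  rw [← hxa, ← hyb, ← map_mul, ← map_mul]
  congr 1
  apply Subtype.ext
  change f x * f y = f y * f x
  let ι : (T : Subgroup K) ≃* ((T : Subgroup K).map K.subtype) :=
    (T : Subgroup K).equivMapOfInjective K.subtype K.subtype_injective
  have := two_group_image_comm p hp ((T : Subgroup K).map K.subtype) (T.isPGroup'.map _)
    ((f.comp (T : Subgroup K).subtype).comp ι.symm.toMonoidHom) (ι ⟨x, hx⟩) (ι ⟨y, hy⟩)
  simpa using this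

end Cfsg.Agent.Lib.Helper41.Quad
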