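import Cfsg.Agent.Lib.Lead.ReeAbs.Final

/-!
# Sylow 2-subgroups of the Ree groups are commutative (for S2787)
-/

set_option autoImplicit false

namespace Cfsg.Agent.Lib.Helper41.Quad

open Cfsg

theorem ree_sylow_two_comm {R : Type*} [Group R] (h : Cfsg.Lie.IsoRee R) (T : Sylow 2 R) :
    IsMulCommutative T := by
  obtain ⟨K, _, _, m, hm, hK, ⟨e⟩⟩ := h
  obtain ⟨X, hs, -⟩ := Cfsg.Agent.Lib.Lead.ReeAbs.exists_str1 hm hK
  have hsq : ∀ x ∈ T, x * x = 1 := by
    intro x hx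
    have h2 : IsPGroup 2 ((T : Subgroup R).map e.toMonoidHom) := T.isPGroup'.map _
    obtain ⟨S, hS⟩ := h2.exists_le_sylow
    have h3 := hs.exp S (e x) (hS ⟨x, hx, rfl⟩)
    apply e.injective
    rw [map_mul, h3, map_one]
  refine ⟨⟨?_⟩⟩
  rintro ⟨x, hx⟩ ⟨y, hy⟩
  apply Subtype.ext
  change x * y = y * x
  have h1 := hsq _ (T.mul_mem hx hy)
  have h2 := hsq x hx
  have h3 := hsq y hy
  calc x * y = x * (x * y * (x * y)) * y := by rw [h1, mul_one]
    _ = (x * x) * (y * x) * (y * y) := by group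
    _ = y * x := by rw [h2, h3, one_mul, mul_one]

end Cfsg.Agent.Lib.Helper41.Quad
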