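import Cfsg.Agent.Lib.Helper29.Holomorph
import Cfsg.Prelude.Def_Transfer
import Cfsg.Prelude.Def_Solvable

/-!
# Transfer of a quadratic action to a faithful action in a semidirect product (for S2787)
-/

set_option autoImplicit false

universe u

namespace Cfsg.Agent.Lib.Helper41.Quad

open Cfsg Subgroup SemidirectProduct Cfsg.Agent.Lib.Helper29
open scoped commutatorElement

variable {G : Type u} [Group G] (V H : Subgroup G)

/-- conjugation action of `H` on `V` -/
def psi (hHV : H ≤ normalizer (V : Set G)) : H →* MulAut V :=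
  V.normalizerMonoidHom.comp (inclusion hHV)

theorem psi_apply (hHV : H ≤ normalizer (V : Set G)) (h : H) (v : V) :
    ((psi V H hHV h v : V) : G) = h * v * (h : G)⁻¹ := rfl

theorem psi_eq_one_iff (hHV : H ≤ normalizer (V : Set G)) (h : H) :
    psi V H hHV h = 1 ↔ h ∈ (centralizer (V : Set G)).subgroupOf H := by
  rw [mem_subgroupOf, mem_centralizer_iff]
  constructor
  · intro h1 v hv
    have := congrArg (fun f : MulAut V => ((f ⟨v, hv⟩ : V) : G)) h1
    simp only [psi_apply, MulAut.one_apply] at this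
    rw [mul_inv_eq_iff_eq_mul] at this
    exact this.symm
  · intro h1
    ext v
    rw [psi_apply, MulAut.one_apply, mul_inv_eq_iff_eq_mul]
    exact (h1 v v.2).symm

/-- the induced action of `H / C_H(V)` -/
def phi (hHV : H ≤ normalizer (V : Set G)) [hn : ((centralizer (V : Set G)).subgroupOf H).Normal] :
    H ⧸ (centralizer (V : Set G)).subgroupOf H →* MulAut V :=
  QuotientGroup.lift _ (psi V H hHV) (fun h hh => (psi_eq_one_iff V H hHV h).2 hh)

theorem phi_mk (hHV : H ≤ normalizer (V : Set G)) [hn : ((centralizer (V : Set G)).subgroupOf H).Normal]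
    (h : H) : phi V H hHV (QuotientGroup.mk h) = psi V H hHV h := rfl

theorem phi_eq_one (hHV : H ≤ normalizer (V : Set G))
    [hn : ((centralizer (V : Set G)).subgroupOf H).Normal]
    (x : H ⧸ (centralizer (V : Set G)).subgroupOf H) (hx : phi V H hHV x = 1) : x = 1 := by
  induction x using QuotientGroup.induction_on with | _ h => ?_
  rw [phi_mk, psi_eq_one_iff] at hx
  exact (QuotientGroup.eq_one_iff h).2 hx

/-- the fixed points of a subgroup `R` of `H / C_H(V)` on `V` -/
def fixSub [hn : ((centralizer (V : Set G)).subgroupOf H).Normal]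
    (R : Subgroup (H ⧸ (centralizer (V : Set G)).subgroupOf H)) : Subgroup G where
  carrier := {g | g ∈ V ∧ ∀ h : H, (QuotientGroup.mk h : H ⧸ (centralizer (V : Set G)).subgroupOf H) ∈ R →
    (h : G) * g * (h : G)⁻¹ = g}
  mul_mem' := by
    rintro a b ⟨ha, ha'⟩ ⟨hb, hb'⟩
    refine ⟨V.mul_mem ha hb, fun h hh => ?_⟩
    have e : (h : G) * (a * b) * (h : G)⁻¹ = ((h : G) * a * (h : G)⁻¹) * ((h : G) * b * (h : G)⁻¹) := by
      group
    rw [e, ha' h hh, hb' h hh]
  one_mem' := ⟨V.one_mem, fun h _ => by simp⟩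
  inv_mem' := by
    rintro a ⟨ha, ha'⟩
    refine ⟨V.inv_mem ha, fun h hh => ?_⟩
    have e : (h : G) * a⁻¹ * (h : G)⁻¹ = ((h : G) * a * (h : G)⁻¹)⁻¹ := by group
    rw [e, ha' h hh]

theorem irr_core [Finite G] {p : ℕ} [Fact p.Prime] (hV : IsElementaryAbelian p V)
    (hHV : H ≤ normalizer (V : Set G)) [hn : ((centralizer (V : Set G)).subgroupOf H).Normal]
    (hirr : ∀ U : Subgroup G, U ≤ V → H ≤ normalizer (U : Set G) → U = ⊥ ∨ U = V) (hVne : V ≠ ⊥)
    (R : Subgroup (H ⧸ (centralizer (V : Set G)).subgroupOf H)) [hRn : R.Normal] (hR : IsPGroup p R) :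
    R = ⊥ := by
  have hUV : fixSub V H R ≤ V := fun g hg => hg.1
  have hstep : ∀ k : H, ∀ g ∈ fixSub V H R, (k : G) * g * (k : G)⁻¹ ∈ fixSub V H R := by
    rintro k g ⟨hg, hg'⟩
    refine ⟨((mem_normalizer_iff.1 (hHV k.2)) g).1 hg, fun h hh => ?_⟩
    have h1 : (QuotientGroup.mk (k⁻¹ * h * k) : H ⧸ (centralizer (V : Set G)).subgroupOf H) ∈ R := by
      have := hRn.conj_mem _ hh (QuotientGroup.mk k⁻¹)
      simpa using this
    have h2 := hg' (k⁻¹ * h * k) h1
    simp only [Subgroup.coe_mul, Subgroup.coe_inv] at h2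
    calc (h : G) * ((k : G) * g * (k : G)⁻¹) * (h : G)⁻¹
        = (k : G) * (((k : G)⁻¹ * h * k) * g * ((k : G)⁻¹ * h * k)⁻¹) * (k : G)⁻¹ := by group
      _ = (k : G) * g * (k : G)⁻¹ := by rw [h2]
  have hUH : H ≤ normalizer (fixSub V H R : Set G) := by
    intro k hk
    rw [mem_normalizer_iff]
    intro g
    constructor
    · exact hstep ⟨k, hk⟩ g
    · intro h1
      have := hstep ⟨k, hk⟩⁻¹ _ h1
      simp only [Subgroup.coe_inv] at this
      convert this using 1
      group
  have hUne : fixSub V H R ≠ ⊥ := by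
    let _ : MulAction R V := MulAction.compHom V ((phi V H hHV).comp R.subtype)
    have hpV : IsPGroup p V := by
      intro v
      refine ⟨1, ?_⟩
      rw [pow_one]
      exact Subtype.ext (hV.2 v v.2)
    have hnt : Nontrivial V := (Subgroup.nontrivial_iff_ne_bot V).2 hVne
    obtain ⟨n, hcard⟩ := hpV.exists_card_eq
    have hn0 : n ≠ 0 := by
      rintro rfl
      rw [pow_zero] at hcard
      have := Finite.one_lt_card (α := V)
      omega
    have hdvd : p ∣ Nat.card V := by rw [hcard]; exact dvd_pow_self p hn0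
    have h1 : (1 : V) ∈ MulAction.fixedPoints R V := by
      intro r
      change (phi V H hHV (r : H ⧸ (centralizer (V : Set G)).subgroupOf H)) 1 = 1
      exact map_one _
    obtain ⟨b, hb, hb1⟩ := hR.exists_fixed_point_of_prime_dvd_card_of_fixed_point V hdvd h1
    intro hbot
    apply hb1
    have hbU : (b : G) ∈ fixSub V H R := by
      refine ⟨b.2, fun h hh => ?_⟩
      have := hb ⟨_, hh⟩
      have h3 : (phi V H hHV (QuotientGroup.mk h)) b = b := this
      rw [phi_mk] at h3
      have := congrArg (Subtype.val) h3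
      rwa [psi_apply] at this
    rw [hbot, mem_bot] at hbU
    exact Subtype.ext hbU.symm
  have hU : fixSub V H R = V := (hirr _ hUV hUH).resolve_left hUne
  rw [eq_bot_iff]
  intro x hx
  rw [mem_bot]
  apply phi_eq_one V H hHV
  induction x using QuotientGroup.induction_on with | _ h => ?_
  rw [phi_mk]
  ext v
  rw [psi_apply, MulAut.one_apply]
  have hv : (v : G) ∈ fixSub V H R := by rw [hU]; exact v.2
  exact hv.2 h hx

theorem comm_inl_inr {K A : Type*} [Group K] [Group A] (φ : A →* MulAut K) (k : K) (a : A) :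
    (inl k * inr a * (inl k)⁻¹ * (inr a)⁻¹ : K ⋊[φ] A) = inl (k * (φ a k)⁻¹) := by
  rw [map_mul, map_inv, ← inr_mul_inl_mul_inr_inv φ]
  group

theorem inr_mul_inl {K A : Type*} [Group K] [Group A] (φ : A →* MulAut K) (k : K) (a : A) :
    (inr a * inl k : K ⋊[φ] A) = inl (φ a k) * inr a := by
  rw [← inr_mul_inl_mul_inr_inv φ, inv_mul_cancel_right]

/-- the transfer principle -/
theorem centralizes_of_quadratic [Finite G] {p : ℕ} [Fact p.Prime] (hV : IsElementaryAbelian p V)
    (hHV : H ≤ normalizer (V : Set G)) [hn : ((centralizer (V : Set G)).subgroupOf H).Normal]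
    (hirr : ∀ U : Subgroup G, U ≤ V → H ≤ normalizer (U : Set G) → U = ⊥ ∨ U = V)
    (key : ∀ (G' : Type u) [Group G'] [Finite G'] (V' H' : Subgroup G'), IsElementaryAbelian p V' →
      H' ≤ normalizer (V' : Set G') → H' ⊓ centralizer (V' : Set G') = ⊥ →
      Nonempty (H ⧸ (centralizer (V : Set G)).subgroupOf H ≃* H') →
      ∀ a ∈ H', ⁅⁅V', zpowers a⁆, zpowers a⁆ = ⊥ → a ∈ (pCore p H').map H'.subtype)
    (A : Subgroup G) (hA : A ≤ H) (hquad : ⁅⁅V, A⁆, A⁆ = ⊥) : ⁅V, A⁆ = ⊥ := by
  by_cases hVne : V = ⊥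
  · rw [hVne]; exact Subgroup.commutator_bot_left A
  set φ := phi V H hHV with hφ
  have hfin : Finite (V ⋊[φ] (H ⧸ (centralizer (V : Set G)).subgroupOf H)) := finite_semidirectProduct φ
  have hV' : IsElementaryAbelian p (sdK φ) := by
    constructor
    · refine ⟨⟨?_⟩⟩
      rintro ⟨_, v, rfl⟩ ⟨_, w, rfl⟩
      apply Subtype.ext
      change (inl v * inl w : V ⋊[φ] _) = inl w * inl v
      rw [← map_mul, ← map_mul, hV.1.is_comm.comm v w]
    · rintro _ ⟨v, rfl⟩
      rw [← map_pow]
      have : v ^ p = 1 := Subtype.ext (hV.2 v v.2)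
      rw [this, map_one]
  have hf' : sdA φ ⊓ centralizer (sdK φ : Set (V ⋊[φ] _)) = ⊥ := by
    rw [eq_bot_iff]
    rintro _ ⟨⟨x, rfl⟩, hx⟩
    rw [mem_bot]
    have : x = 1 := by
      apply phi_eq_one V H hHV
      ext v
      have h1 := (mem_centralizer_iff.1 hx) (inl v) (inl_mem_sdK φ v)
      have h2 := inr_mul_inl_mul_inr_inv φ x v
      rw [← h1, mul_inv_cancel_right] at h2
      have h3 := inl_injective h2
      rw [MulAut.one_apply, ← h3]
    rw [this, map_one]
  have hcent : ∀ a ∈ A, a ∈ centralizer (V : Set G) := by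
    intro a ha
    have hq' : ⁅⁅sdK φ, zpowers (inr (QuotientGroup.mk ⟨a, hA ha⟩) : V ⋊[φ] _)⁆,
        zpowers (inr (QuotientGroup.mk ⟨a, hA ha⟩) : V ⋊[φ] _)⁆ = ⊥ := by
      rw [Subgroup.commutator_eq_bot_iff_le_centralizer, Subgroup.commutator_le]
      rintro _ ⟨v, rfl⟩ _ ⟨i, rfl⟩
      rw [mem_centralizer_iff]
      rintro _ ⟨j, rfl⟩
      simp only []
      rw [← map_zpow, ← map_zpow, ← QuotientGroup.mk_zpow, ← QuotientGroup.mk_zpow]
      set b : H := (⟨a, hA ha⟩ : H) ^ i with hb
      set c : H := (⟨a, hA ha⟩ : H) ^ j with hc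
      have hbA : (b : G) ∈ A := by
        rw [hb, Subgroup.coe_zpow]; exact A.zpow_mem ha i
      have hcA : (c : G) ∈ A := by
        rw [hc, Subgroup.coe_zpow]; exact A.zpow_mem ha j
      rw [commutatorElement_def, comm_inl_inr, inr_mul_inl]
      congr 2
      apply Subtype.ext
      rw [hφ, phi_mk, phi_mk, psi_apply]
      have hw : ((v * (psi V H hHV b v)⁻¹ : V) : G) = ⁅(v : G), (b : G)⁆ := by
        rw [Subgroup.coe_mul, Subgroup.coe_inv, psi_apply, commutatorElement_def]
        group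
      rw [hw]
      have h5 : ⁅(v : G), (b : G)⁆ ∈ ⁅V, A⁆ := Subgroup.commutator_mem_commutator v.2 hbA
      have h6 := (Subgroup.commutator_eq_bot_iff_le_centralizer.1 hquad) h5
      have h7 := (mem_centralizer_iff.1 h6) c hcA
      rw [h7, mul_inv_cancel_right]
    have h1 := key _ (sdK φ) (sdA φ) hV' (sdA_le_normalizer_sdK φ) hf' ⟨sdAEquiv φ⟩ _
      (inr_mem_sdA φ _) hq'
    have hcore : pCore p (sdA φ) = ⊥ := by
      unfold pCore
      rw [sSup_eq_bot]
      rintro R ⟨hRn, hRp⟩
      have hn2 : (R.map (sdAEquiv φ).symm.toMonoidHom).Normal :=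
        hRn.map _ (sdAEquiv φ).symm.surjective
      have h3 := irr_core V H hV hHV hirr hVne (R.map (sdAEquiv φ).symm.toMonoidHom) (hRp.map _)
      exact (Subgroup.map_eq_bot_iff_of_injective R (sdAEquiv φ).symm.injective).1 h3
    rw [hcore, Subgroup.map_bot, mem_bot] at h1
    have h2 : (QuotientGroup.mk (⟨a, hA ha⟩ : H) : H ⧸ (centralizer (V : Set G)).subgroupOf H) = 1 := by
      apply inr_injective (φ := φ)
      rw [h1, map_one]
    rw [QuotientGroup.eq_one_iff, mem_subgroupOf] at h2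
    exact h2
  rw [Subgroup.commutator_eq_bot_iff_le_centralizer]
  intro v hv
  rw [mem_centralizer_iff]
  intro a ha
  exact ((mem_centralizer_iff.1 (hcent a ha)) v hv).symm

end Cfsg.Agent.Lib.Helper41.Quad
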